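import Cfsg.Agent.H83.CoreKilling.Main
import Cfsg.Agent.S0502

/-!
Cores of involution centralisers in a simple group with constrained 2-locals and a normal abelian
subgroup of rank three in a Sylow 2-subgroup, given the core theorem for strongly embedded subgroups.
-/

set_option autoImplicit false

namespace Cfsg.Agent.H77

open Subgroup Cfsg

theorem core_eq_bot_of_constrained_locals {G : Type*} [Group G] [Finite G] [IsSimpleGroup G]
    (hB : ∀ M : Subgroup G, IsStronglyEmbedded M → (oddCore ↥M).map M.subtype ≤ oddCore G)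
    (hodd : ∀ X : Subgroup G, Odd (Nat.card ↥X) → Group.IsSolvable ↥X)
    (hG : ¬ IsMulCommutative G)
    (h2c : ∀ T : Subgroup G, IsPGroup 2 T → T ≠ ⊥ → IsPConstrained 2 ↥(normalizer (T : Set G)))
    (S : Sylow 2 G) (A : Subgroup ↥(S : Subgroup G)) (hAn : A.Normal) (hAab : IsMulCommutative ↥A)
    (hA3 : ¬ PRankLE 2 2 ↥A) (t : G) (ht : orderOf t = 2) : centralizerPPrimeCore 2 t = ⊥ := by
  haveI : Fact (Nat.Prime 2) := ⟨Nat.prime_two⟩
  have hc : ∀ a ∈ A, ∀ b ∈ A, a * b = b * a := fun a ha b hb =>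
    congrArg Subtype.val (hAab.1.1 ⟨a, ha⟩ ⟨b, hb⟩)
  let Ω : Subgroup ↥(S : Subgroup G) :=
    { carrier := {a | a ∈ A ∧ a ^ 2 = 1}
      one_mem' := ⟨one_mem _, one_pow _⟩
      mul_mem' := fun {a b} ha hb => ⟨mul_mem ha.1 hb.1, by
        rw [Commute.mul_pow (hc a ha.1 b hb.1 : Commute a b), ha.2, hb.2, one_mul]⟩
      inv_mem' := fun {a} ha => ⟨inv_mem ha.1, by rw [inv_pow, ha.2, inv_one]⟩ }
  haveI : Ω.Normal :=
    ⟨fun a ha g => ⟨hAn.conj_mem a ha.1 g, by rw [conj_pow, ha.2, mul_one, mul_inv_cancel]⟩⟩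
  simp only [PRankLE, not_forall, not_le] at hA3
  obtain ⟨V, hVc, hV2, hV⟩ := hA3
  have hVe : IsElementaryAbelian 2 V := ⟨hVc, hV2⟩
  have h8V : 2 ^ (2 + 1) ≤ Nat.card V := H51.two_pow_le_card_of_lt (k := 2) hVe hV
  have h8 : 8 ≤ Nat.card Ω := by
    refine le_trans h8V (Nat.card_le_card_of_injective
      (fun v : ↥V => (⟨((v : ↥A) : ↥(S : Subgroup G)), (v : ↥A).2,
        congrArg Subtype.val (hV2 v v.2)⟩ : ↥Ω)) ?_)
    intro v w h
    exact Subtype.ext (Subtype.ext (congrArg (fun x : ↥Ω => (x : ↥(S : Subgroup G))) h))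
  have hconn := S0502.result S.isPGroup' Ω
    ⟨⟨fun a b => Subtype.ext (hc a a.2.1 b b.2.1)⟩⟩ (fun e he => he.2) h8
  have hrank : ¬ PRankLE 2 2 G := by
    intro h
    let f : ↥A →* G := (S : Subgroup G).subtype.comp A.subtype
    have hinj : Function.Injective f :=
      fun a b hab => Subtype.ext (Subtype.ext hab)
    haveI := hVc
    have := h (V.map f) inferInstance (by
      rintro _ ⟨a, ha, rfl⟩
      rw [← map_pow, hV2 a ha, map_one])
    rw [card_map_of_injective hinj] at this
    omega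
  have hcons : ∀ u : G, orderOf u = 2 → IsPConstrained 2 ↥(centralizer ({u} : Set G)) := by
    intro u hu
    have hN : normalizer ((zpowers u : Subgroup G) : Set G) = centralizer ({u} : Set G) := by
      ext g
      rw [mem_centralizer_singleton_iff]
      constructor
      · intro hg
        have h1 : g * u * g⁻¹ ∈ zpowers u := (mem_normalizer_iff.mp hg u).mp (mem_zpowers u)
        obtain ⟨k, hk⟩ := mem_zpowers_iff.mp h1
        have hu2 : u ^ (2 : ℤ) = 1 := by
          rw [zpow_two, ← pow_two, ← hu, pow_orderOf_eq_one]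
        rcases Int.even_or_odd k with ⟨j, rfl⟩ | ⟨j, rfl⟩
        · rw [← two_mul, zpow_mul, hu2, one_zpow] at hk
          have h2 : u = 1 := conj_eq_one_iff.mp hk.symm
          rw [h2, orderOf_one] at hu
          exact absurd hu (by norm_num)
        · rw [zpow_add, zpow_mul, hu2, one_zpow, one_mul, zpow_one] at hk
          exact (mul_inv_eq_iff_eq_mul.mp hk.symm)
      · intro hg
        refine centralizer_le_normalizer _ (mem_centralizer_iff.mpr fun x hx => ?_)
        obtain ⟨k, rfl⟩ := mem_zpowers_iff.mp hx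
        exact ((show Commute g u from hg).zpow_right k).symm.eq
    have hne : zpowers u ≠ ⊥ := fun h => by
      rw [zpowers_eq_bot] at h; rw [h, orderOf_one] at hu; exact absurd hu (by norm_num)
    have := h2c (zpowers u) (H51.isPGroup_zpowers_of_orderOf hu) hne
    rwa [hN] at this
  have hO : oddCore G = ⊥ := by
    rcases (H51.pPrimeCore_normal 2 G).eq_bot_or_eq_top with h | h
    · exact h
    · exfalso
      have hoddG : Odd (Nat.card ↥(⊤ : Subgroup G)) := by
        rw [← h]
        exact Nat.coprime_two_right.mp (H51.pPrimeCore_coprime 2 G)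
      haveI : Group.IsSolvable ↥(⊤ : Subgroup G) := hodd ⊤ hoddG
      haveI : Group.IsSolvable G := solvable_of_surjective (f := (⊤ : Subgroup G).subtype) (fun g => ⟨⟨g, mem_top g⟩, rfl⟩)
      exact hG ⟨⟨IsSimpleGroup.comm_iff_isSolvable.mpr inferInstance⟩⟩
  have H : H83.CoreKilling.Hyp S := ⟨hconn, hrank, hcons, hodd⟩
  exact H.core_eq_bot hO hB ht

end Cfsg.Agent.H77
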